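import Cfsg.Agent.Syl2.G2a
import Cfsg.Agent.Ree.Seven
import Cfsg.Agent.S1059

/-! The Chevalley group `G₂(F)` is the automorphism group of the split octonions (`chevEquiv`). -/

set_option autoImplicit false

namespace Cfsg.Agent.Syl2.G2

open Chev Cfsg.Lie Matrix

/-- A matrix from a list of entries. -/
def sp8 (L : List (ℕ × ℕ × ℤ)) : Matrix (Fin 8) (Fin 8) ℤ :=
  Matrix.of fun i j => (L.map fun c => if c.1 = i.val ∧ c.2.1 = j.val then c.2.2 else 0).sum

/-- The root vectors. -/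
def f1 (r : ℕ) : List (ℕ × ℕ × ℤ) := [[(3, 1, -1), (4, 6, 1)], [(2, 1, -1), (4, 5, 1)],
  [(0, 1, -1), (2, 6, -1), (3, 5, 1), (4, 0, 1), (4, 7, -1), (7, 1, 1)],
  [(0, 6, 1), (3, 0, -1), (3, 7, 1), (4, 2, 1), (5, 1, -1), (7, 6, -1)],
  [(0, 5, 1), (2, 0, -1), (2, 7, 1), (4, 3, -1), (6, 1, 1), (7, 5, -1)], [(3, 2, -1), (5, 6, 1)],
  [(2, 3, -1), (6, 5, 1)], [(0, 2, -1), (1, 6, 1), (3, 4, -1), (5, 0, 1), (5, 7, -1), (7, 2, 1)],
  [(0, 3, -1), (1, 5, -1), (2, 4, 1), (6, 0, 1), (6, 7, -1), (7, 3, 1)],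
  [(0, 4, 1), (1, 0, -1), (1, 7, 1), (5, 3, 1), (6, 2, -1), (7, 4, -1)], [(1, 2, -1), (5, 4, 1)],
  [(1, 3, -1), (6, 4, 1)]].getD r []

/-- The second divided powers. -/
def f2 (r : ℕ) : List (ℕ × ℕ × ℤ) := [[], [], [(4, 1, -1)], [(3, 6, -1)], [(2, 5, -1)], [], [], [(5, 2, -1)],
  [(6, 3, -1)], [(1, 4, -1)]].getD r []

theorem eight_aux : ∀ r : Rt chevG2, sp8 (f1 r) * sp8 (f1 r) = (2 : ℤ) • sp8 (f2 r) ∧ sp8 (f2 r) * sp8 (f1 r) = 0 := by
  decide +kernel

/-- The weights. -/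
def wt8 (v : Fin 8) (i : Sm chevG2) : ℤ :=
  ([[0, 0], [1, 0], [-2, 1], [1, -1], [-1, 0], [2, -1], [-1, 1], [0, 0]].getD v []).getD i 0

theorem eight_wt : ∀ r : Rt chevG2, (Matrix.of fun a b => sp8 (f1 r) a b = 0 ∨ wt8 a = wt8 b + fun i => car i r :
    Matrix _ _ Bool) = Matrix.of fun _ _ => true := by
  decide +kernel

/-- The integral 8-dimensional module. -/
def eight : PreRep chevG2 (Fin 8) where
  E r k := match k with | 0 => 1 | 1 => sp8 (f1 r) | 2 => sp8 (f2 r) | _ + 3 => 0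
  m := 3
  wt := wt8
  E_zero _ := rfl
  E_succ r k := match k with
    | 0 => by simp
    | 1 => (eight_aux r).1
    | 2 => by simp [(eight_aux r).2]
    | _ + 3 => by simp
  E_bound _ := rfl
  E_wt r a b h := (of_decide_eq_true (congrFun (congrFun (eight_wt r) a) b)).resolve_left h

theorem eight_aux' : ∀ r s : Rt chevG2, sp8 (f1 r) * sp8 (f1 s) - sp8 (f1 s) * sp8 (f1 r) =
    N r s • sp8 (f1 (addN chevG2 r s)) + if s = ng r then diagonal fun v => ∑ i, cov r i * wt8 v i else 0 := by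
  decide +kernel

theorem eight_isRep : eight.IsRep := fun r s => by
  rw [Ecol_one_inr, map_add, map_smul, PreRep.ρL_ev, cm_int, apply_ite (eight.ρL ℤ), PreRep.ρL_hv, map_zero]
  exact eight_aux' r s

theorem eight_y {A : Type*} [CommRing A] (r : Rt chevG2) (t : A) :
    eight.y r t = 1 + t • cm A (sp8 (f1 r)) + t ^ 2 • cm A (sp8 (f2 r)) := by
  simp [PreRep.y, eight, Finset.sum_range_succ]

variable (K : Type*) [Field K]

/-- The 8-dimensional representation of `G₂(K)`. -/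
noncomputable def rho8 : chevG2.group K →* GL (Fin 8) K :=
  (PreRep.sys_mult (F := K) eight_isRep).lift.comp (MulEquiv.ofBijective _ (Ree.grS_lift_bijective K)).symm.toMonoidHom

variable {K}

theorem rho8_x (r : Rt chevG2) (t : K) : (rho8 K ((grS chevG2 K).x r t) : Matrix (Fin 8) (Fin 8) K) = eight.y r t := by
  rw [← (grS_mult chevG2 K).lift_stGen]
  change ((PreRep.sys_mult (F := K) eight_isRep).lift ((MulEquiv.ofBijective _ (Ree.grS_lift_bijective K)).symm
    (MulEquiv.ofBijective _ (Ree.grS_lift_bijective K) (chevG2.stGen K r t))) : Matrix (Fin 8) (Fin 8) K) = _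
  rw [MulEquiv.symm_apply_apply, Sys.Mult.lift_stGen, PreRep.coe_sys_x]

theorem rho8_injective (h : ∃ a : K, a ≠ 0 ∧ a ≠ 1) : Function.Injective (rho8 K) := by
  have := (simple_group chevG2 K (Or.inl h)).1
  refine (MonoidHom.ker_eq_bot_iff _).1 ((rho8 K).normal_ker.eq_bot_or_eq_top.resolve_right fun e => ?_)
  have h1 : rho8 K ((grS chevG2 K).x ⟨6, by decide⟩ 1) = 1 := (e ▸ Subgroup.mem_top _ : _ ∈ (rho8 K).ker)
  have h2 := rho8_x (K := K) ⟨6, by decide⟩ 1
  rw [h1, eight_y] at h2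
  simpa [cm_apply, sp8, f1, f2, Matrix.one_apply] using congrFun (congrFun h2 6) 5

theorem mem_of {r : Rt chevG2} {t : K} (f : (Fin 8 → K) → (Fin 8 → K)) (h1 : ∀ x, eight.y r t *ᵥ x = f x)
    (h2 : ∀ x y, f (zornMul x y) = zornMul (f x) (f y)) : (grS chevG2 K).x r t ∈ (G2 K).comap (rho8 K) := by
  intro x y
  simp only [Units.coeHom_apply, rho8_x, h1, h2]

theorem rho8_mem (g : chevG2.group K) : rho8 K g ∈ G2 K := by
  have k : ∀ (n : ℕ) (h : n < chevG2.nroots) (t : K) x i, (eight.y ⟨n, h⟩ t *ᵥ x) i =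
      x i + ∑ j, (t * (sp8 (f1 n) i j : ℤ) + t ^ 2 * (sp8 (f2 n) i j : ℤ)) * x j := fun n h t x i => by
    rw [eight_y, add_assoc, add_mulVec, one_mulVec]
    simp [mulVec, dotProduct, cm_apply]
  refine ((grS chevG2 K).U_univ_le (K := (G2 K).comap (rho8 K)) (fun j t => ?_) fun j t => ?_)
    ((grS_U_univ chevG2 K).ge (Subgroup.mem_top g))
  · fin_cases j
    · exact mem_of (r := ⟨7, by decide⟩) (fun x => ![x 0 - t * x 2, x 1 + t * x 6, x 2, x 3 - t * x 4, x 4,
        x 5 + t * x 0 - t * x 7 - t ^ 2 * x 2, x 6, x 7 + t * x 2])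
        (fun x => by ext i; rw [k]; fin_cases i <;> simp [Fin.sum_univ_eight, sp8, f1, f2] <;> ring)
        fun x y => by ext i; fin_cases i <;> simp [zornMul, dot3, cross3] <;> ring
    · exact mem_of (r := ⟨6, by decide⟩) (fun x => ![x 0, x 1, x 2 - t * x 3, x 3, x 4, x 5, x 6 + t * x 5, x 7])
        (fun x => by ext i; rw [k]; fin_cases i <;> simp [Fin.sum_univ_eight, sp8, f1, f2] <;> ring)
        fun x y => by ext i; fin_cases i <;> simp [zornMul, dot3, cross3] <;> ring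
  · fin_cases j
    · exact mem_of (r := ⟨4, by decide⟩) (fun x => ![x 0 + t * x 5, x 1, x 2 - t * x 0 + t * x 7 - t ^ 2 * x 5, x 3,
        x 4 - t * x 3, x 5, x 6 + t * x 1, x 7 - t * x 5])
        (fun x => by ext i; rw [k]; fin_cases i <;> simp [Fin.sum_univ_eight, sp8, f1, f2] <;> ring)
        fun x y => by ext i; fin_cases i <;> simp [zornMul, dot3, cross3] <;> ring
    · exact mem_of (r := ⟨5, by decide⟩) (fun x => ![x 0, x 1, x 2, x 3 - t * x 2, x 4, x 5 + t * x 6, x 6, x 7])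
        (fun x => by ext i; rw [k]; fin_cases i <;> simp [Fin.sum_univ_eight, sp8, f1, f2] <;> ring)
        fun x y => by ext i; fin_cases i <;> simp [zornMul, dot3, cross3] <;> ring

theorem card_G2_dvd' [Fintype K] : Nat.card (G2 K) ∣ Nat.card (chevG2.group K) := by
  refine card_G2_dvd.trans (dvd_of_eq ?_)
  rw [S1059.result (F := K) rfl, Nat.card_eq_fintype_card]
  have h1 : 0 < Fintype.card K := Fintype.card_pos
  generalize Fintype.card K = q at h1
  have a1 : 1 ≤ q ^ 2 := Nat.one_le_pow _ _ h1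
  have a2 : 1 ≤ q ^ 3 := Nat.one_le_pow _ _ h1
  have a3 : 1 ≤ q ^ 6 := Nat.one_le_pow _ _ h1
  zify [a1, a2, a3]
  ring

/-- The two models of `G₂(K)`. -/
noncomputable def chevEquiv [Fintype K] (h : ∃ a : K, a ≠ 0 ∧ a ≠ 1) : chevG2.group K ≃* G2 K :=
  MulEquiv.ofBijective ((rho8 K).codRestrict _ rho8_mem) ((Nat.bijective_iff_injective_and_card _).2
    ⟨fun _ _ e => rho8_injective h (congrArg Subtype.val e), Nat.dvd_antisymm (Subgroup.card_dvd_of_injective
      ((rho8 K).codRestrict _ rho8_mem) fun _ _ e => rho8_injective h (congrArg Subtype.val e)) card_G2_dvd'⟩)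

end Cfsg.Agent.Syl2.G2
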